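import Cfsg.Agent.Lib.Helper36.Stu.Defs

/-!
# Project STU (S2318): package ADDCHAR

A finite field has a nontrivial additive character with values in `ℂ`.
-/

set_option autoImplicit false

namespace Cfsg.Agent.Lib.Helper10.Stu

open Cfsg.Agent.Lib.Helper36.Stu

universe u

/-- **ADDCHAR**: a finite field has a nontrivial additive character. -/
theorem pkgAddChar : PkgAddChar.{u} := by
  intro F _ _
  obtain ⟨ψ, hψ⟩ := (AddChar.exists_apply_ne_zero (α := F) (a := (1 : F))).mpr one_ne_zero
  exact ⟨fun a => ψ a, AddChar.map_zero_eq_one ψ, fun a b => AddChar.map_add_eq_mul ψ a b, 1, hψ⟩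

end Cfsg.Agent.Lib.Helper10.Stu
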